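import Cfsg.Agent.H365.E83.Cen
import Cfsg.Agent.H65.E8L.Ad

/-!
# `adE` is injective (helper365, S5925, box Q)
-/

set_option autoImplicit false
set_option maxRecDepth 100000

namespace Cfsg.Agent.H365.E83.AdCen

open Cfsg Cfsg.Lie Matrix
open Cfsg.Agent.H65.E8L.Eng Cfsg.Agent.H65.E8L.Ad
open Cfsg.Agent.ChevalleyStructure.LieAbs Cfsg.Agent.ChevalleyStructure.LieAut

/-- **the centre is zero** -/
theorem adE_cen (u : V) (h : adE u = 0) : u = 0 := by
  apply Cen.cen
  ext a b
  have h1 := congrFun (congrArg (fun f : Module.End (ZMod 3) V => f (Pi.single b 1)) h) a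
  have h2 : (adE u) (Pi.single b 1) = adv (adR chevE8 (ZMod 3)) u *ᵥ Pi.single b 1 := rfl
  simp only [h2, Matrix.mulVec_single_one] at h1
  exact h1

end Cfsg.Agent.H365.E83.AdCen
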